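import Mathlib
import Cfsg.Agent.Lib.Helper17.ReeOut.Defs

/-!
# ReeOut (S2127): [RIG1b]

In a group with rank-one Bruhat data `U`, `H`, `n`, an element stabilising `U` and `n U n⁻¹` lies
in `H`.
-/

set_option autoImplicit false

namespace Cfsg.Agent.Lib.Helper8.ReeOut

open Cfsg.Agent.Lib.Helper17.ReeOut (BNData)

universe u

variable {G : Type u} [Group G] {U H : Subgroup G} {n : G}

theorem n_inv (hB : BNData U H n) : n⁻¹ = n := inv_eq_of_mul_eq_one_left hB.nsq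

theorem conj_n_mem (hB : BNData U H n) (h : G) (hh : h ∈ H) : n⁻¹ * h * n ∈ H := by
  have hn := n_inv hB
  have h1 := hB.nH h hh
  have e : n * h * n⁻¹ = n⁻¹ * h * n := by rw [hn]
  rwa [e] at h1

/-- the core of [RIG1b], without finiteness -/
theorem rig1b (hB : BNData U H n) (g : G) (hgU : ∀ x ∈ U, g * x * g⁻¹ ∈ U)
    (hgV : ∀ x ∈ U, ∃ y ∈ U, g * (n * x * n⁻¹) * g⁻¹ = n * y * n⁻¹) : g ∈ H := by
  have hn := n_inv hB
  obtain ⟨u₀, hu₀, hu₀1⟩ := hB.ne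
  obtain ⟨v, hv, h, hh, hg⟩ := hB.ti g u₀ hu₀ hu₀1 (hgU u₀ hu₀)
  obtain ⟨y, hy, hgy⟩ := hgV u₀ hu₀
  have h1 : (n⁻¹ * g * n) * u₀ * (n⁻¹ * g * n)⁻¹ = y := by
    have e : (n⁻¹ * g * n) * u₀ * (n⁻¹ * g * n)⁻¹ = n⁻¹ * (g * (n * u₀ * n⁻¹) * g⁻¹) * n := by
      group
    rw [e, hgy]
    group
  obtain ⟨v', hv', h', hh', hg'⟩ := hB.ti (n⁻¹ * g * n) u₀ hu₀ hu₀1 (by rw [h1]; exact hy)
  have hk : n⁻¹ * h * n ∈ H := conj_n_mem hB h hh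
  have h2 : n * v * n⁻¹ = v' * (h' * (n⁻¹ * h * n)⁻¹) := by
    have e1 : n * v * n⁻¹ = n⁻¹ * v * n := by rw [hn]
    have e2 : n⁻¹ * v * n = (n⁻¹ * (v * h) * n) * (n⁻¹ * h * n)⁻¹ := by group
    rw [e1, e2, ← hg, hg', mul_assoc]
  have hv1 : v = 1 := hB.hV v hv v' hv' _ (H.mul_mem hh' (H.inv_mem hk)) h2
  rw [hg, hv1, one_mul]
  exact hh

/-- [RIG1b] -/
theorem pkgRig1b : Cfsg.Agent.Lib.Helper17.ReeOut.PkgRig1b.{u} := by
  intro G _ _ U H n hB g hgU hgV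
  exact rig1b hB g hgU hgV

end Cfsg.Agent.Lib.Helper8.ReeOut
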