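import Mathlib
import Cfsg.Agent.Lib.Helper8.ReeOut.Rig1b

/-!
# ReeOut (S2127): [RIG1]

An automorphism stabilising `U` is, up to an inner automorphism, one that stabilises `U`, `H` and
`n U n⁻¹`.
-/

set_option autoImplicit false

namespace Cfsg.Agent.Lib.Helper8.ReeOut

open Cfsg.Agent.Lib.Helper17.ReeOut (BNData)

universe u

variable {G : Type u} [Group G] {U H : Subgroup G} {n : G}

/-- elements of `H` stabilise `U` and `n U n⁻¹` -/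
theorem H_stab (hB : BNData U H n) (h : G) (hh : h ∈ H) :
    (∀ x ∈ U, h * x * h⁻¹ ∈ U) ∧
      (∀ x ∈ U, ∃ y ∈ U, h * (n * x * n⁻¹) * h⁻¹ = n * y * n⁻¹) := by
  refine ⟨fun x hx => hB.hU h hh x hx, fun x hx => ?_⟩
  have hk : n⁻¹ * h * n ∈ H := conj_n_mem hB h hh
  exact ⟨(n⁻¹ * h * n) * x * (n⁻¹ * h * n)⁻¹, hB.hU _ hk x hx, by group⟩

/-- an automorphism mapping `U` onto `U` and `n U n⁻¹` onto `n U n⁻¹` maps `H` onto `H` -/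
theorem aut_stab_H (hB : BNData U H n) (ψ : MulAut G) (hA : ∀ x, x ∈ U ↔ ψ x ∈ U)
    (hBv : ∀ x ∈ U, ∃ y ∈ U, ψ (n * x * n⁻¹) = n * y * n⁻¹)
    (hC : ∀ y ∈ U, ∃ x ∈ U, ψ (n * x * n⁻¹) = n * y * n⁻¹) :
    ∀ x, x ∈ H ↔ ψ x ∈ H := by
  intro x
  constructor
  · intro hx
    obtain ⟨s1, s2⟩ := H_stab hB x hx
    apply rig1b hB
    · intro y hy
      obtain ⟨y₀, rfl⟩ := ψ.surjective y
      have hy₀ : y₀ ∈ U := (hA y₀).mpr hy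
      have e : ψ x * ψ y₀ * (ψ x)⁻¹ = ψ (x * y₀ * x⁻¹) := by
        rw [map_mul, map_mul, map_inv]
      rw [e]
      exact (hA _).mp (s1 y₀ hy₀)
    · intro y hy
      obtain ⟨y₁, hy₁, e1⟩ := hC y hy
      obtain ⟨y₂, hy₂, e2⟩ := s2 y₁ hy₁
      obtain ⟨y₃, hy₃, e3⟩ := hBv y₂ hy₂
      refine ⟨y₃, hy₃, ?_⟩
      calc ψ x * (n * y * n⁻¹) * (ψ x)⁻¹ = ψ x * ψ (n * y₁ * n⁻¹) * (ψ x)⁻¹ := by rw [e1]
        _ = ψ (x * (n * y₁ * n⁻¹) * x⁻¹) := by simp only [map_mul, map_inv]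
        _ = ψ (n * y₂ * n⁻¹) := by rw [e2]
        _ = n * y₃ * n⁻¹ := e3
  · intro hx
    obtain ⟨s1, s2⟩ := H_stab hB (ψ x) hx
    apply rig1b hB
    · intro y hy
      rw [hA, map_mul, map_mul, map_inv]
      exact s1 _ ((hA y).mp hy)
    · intro y hy
      obtain ⟨y₁, hy₁, e1⟩ := hBv y hy
      obtain ⟨y₂, hy₂, e2⟩ := s2 y₁ hy₁
      obtain ⟨y₃, hy₃, e3⟩ := hC y₂ hy₂
      refine ⟨y₃, hy₃, ?_⟩
      apply ψ.injective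
      calc ψ (x * (n * y * n⁻¹) * x⁻¹) = ψ x * ψ (n * y * n⁻¹) * (ψ x)⁻¹ := by
            simp only [map_mul, map_inv]
        _ = ψ x * (n * y₁ * n⁻¹) * (ψ x)⁻¹ := by rw [e1]
        _ = n * y₂ * n⁻¹ := e2
        _ = ψ (n * y₃ * n⁻¹) := e3.symm

/-- [RIG1] -/
theorem pkgRig1 : Cfsg.Agent.Lib.Helper17.ReeOut.PkgRig1.{u} := by
  intro G _ _ U H n hB φ hφ
  obtain ⟨u₀, hu₀, hu₀1⟩ := hB.ne
  rcases hB.cells (φ n) with ⟨u, hu, h, hh, hg⟩ | ⟨u', hu', h, hh, u, hu, hg⟩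
  · exfalso
    have h1 : φ (n * u₀ * n⁻¹) ∈ U := by
      rw [map_mul, map_mul, map_inv, hg]
      have e : u * h * φ u₀ * (u * h)⁻¹ = u * (h * φ u₀ * h⁻¹) * u⁻¹ := by group
      rw [e]
      exact U.mul_mem (U.mul_mem hu (hB.hU h hh _ ((hφ u₀).mp hu₀))) (U.inv_mem hu)
    have h2 : n * u₀ * n⁻¹ ∈ U := (hφ _).mpr h1
    exact hu₀1 (hB.hV u₀ hu₀ (n * u₀ * n⁻¹) h2 1 H.one_mem (by rw [mul_one]))
  · have hbU : ∀ y, y ∈ U ↔ (u' * h)⁻¹ * y * ((u' * h)⁻¹)⁻¹ ∈ U := by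
      intro y
      constructor
      · intro hy
        have e : (u' * h)⁻¹ * y * ((u' * h)⁻¹)⁻¹ = h⁻¹ * (u'⁻¹ * y * u') * (h⁻¹)⁻¹ := by group
        rw [e]
        exact hB.hU h⁻¹ (H.inv_mem hh) _ (U.mul_mem (U.mul_mem (U.inv_mem hu') hy) hu')
      · intro hy
        have e : y = u' * (h * ((u' * h)⁻¹ * y * ((u' * h)⁻¹)⁻¹) * h⁻¹) * u'⁻¹ := by group
        rw [e]
        exact U.mul_mem (U.mul_mem hu' (hB.hU h hh _ hy)) (U.inv_mem hu')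
    have hA : ∀ x, x ∈ U ↔ (MulAut.conj (u' * h)⁻¹ * φ) x ∈ U := by
      intro x
      rw [MulAut.mul_apply, MulAut.conj_apply, ← hbU]
      exact hφ x
    have hval : ∀ x, (MulAut.conj (u' * h)⁻¹ * φ) (n * x * n⁻¹) =
        n * (u * φ x * u⁻¹) * n⁻¹ := by
      intro x
      rw [MulAut.mul_apply, MulAut.conj_apply, map_mul, map_mul, map_inv, hg]
      group
    have hBv : ∀ x ∈ U, ∃ y ∈ U,
        (MulAut.conj (u' * h)⁻¹ * φ) (n * x * n⁻¹) = n * y * n⁻¹ := by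
      intro x hx
      exact ⟨u * φ x * u⁻¹, U.mul_mem (U.mul_mem hu ((hφ x).mp hx)) (U.inv_mem hu), hval x⟩
    have hC : ∀ y ∈ U, ∃ x ∈ U,
        (MulAut.conj (u' * h)⁻¹ * φ) (n * x * n⁻¹) = n * y * n⁻¹ := by
      intro y hy
      obtain ⟨x, hx⟩ := φ.surjective (u⁻¹ * y * u)
      refine ⟨x, (hφ x).mpr ?_, ?_⟩
      · rw [hx]
        exact U.mul_mem (U.mul_mem (U.inv_mem hu) hy) hu
      · rw [hval, hx]
        group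
    exact ⟨(u' * h)⁻¹, hA, aut_stab_H hB _ hA hBv hC, hBv⟩

end Cfsg.Agent.Lib.Helper8.ReeOut
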