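import Mathlib
import Cfsg.Agent.Lib.Helper17.ReeOut.Defs

/-!
# ReeOut (S2127): [SEMI]

An injective additive map of a finite field that is semilinear for a map of the units is a field
automorphism times a constant.
-/

set_option autoImplicit false

namespace Cfsg.Agent.Lib.Helper8.ReeOut

universe u

/-- [SEMI] -/
theorem pkgSemi : Cfsg.Agent.Lib.Helper17.ReeOut.PkgSemi.{u} := by
  intro F _ _ f α hadd hinj hsemi
  have h0 : f 0 = 0 := by
    have h := hadd 0 0
    rw [add_zero] at h
    exact add_eq_left.mp h.symm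
  have hc : f 1 ≠ 0 := by
    intro h
    exact one_ne_zero (hinj (h.trans h0.symm))
  have hmul : ∀ x y : F, (f 1)⁻¹ * f (x * y) = (f 1)⁻¹ * f x * ((f 1)⁻¹ * f y) := by
    intro x y
    by_cases hx : x = 0
    · subst hx
      simp [h0]
    · have h1 := hsemi (Units.mk0 x hx) y
      have h3 := hsemi (Units.mk0 x hx) 1
      simp only [Units.val_mk0, mul_one] at h1 h3
      rw [h1, h3]
      field_simp
  obtain ⟨ψ, hψ⟩ : ∃ ψ : F →+* F, ∀ t, ψ t = (f 1)⁻¹ * f t :=
    ⟨{ toFun := fun t => (f 1)⁻¹ * f t
       map_one' := inv_mul_cancel₀ hc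
       map_mul' := hmul
       map_zero' := by simp [h0]
       map_add' := by
         intro x y
         rw [hadd]
         ring }, fun _ => rfl⟩
  have hψbij : Function.Bijective ψ := Finite.injective_iff_bijective.mp ψ.injective
  refine ⟨Units.mk0 (f 1) hc, RingEquiv.ofBijective ψ hψbij, ?_, ?_⟩
  · intro t
    rw [RingEquiv.ofBijective_apply, hψ, Units.val_mk0]
    field_simp
  · intro ν
    rw [RingEquiv.ofBijective_apply, hψ]
    have h1 := hsemi ν 1
    rw [mul_one] at h1
    rw [h1]
    field_simp

end Cfsg.Agent.Lib.Helper8.ReeOut
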